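import Mathlib
import Cfsg.Prelude.Def_Sporadic_a

/-! Abstract binary Golay codes: 12-dimensional codes of length 24 with minimum weight 8. -/

set_option autoImplicit false

namespace H96.AbsGolay

open Cfsg

abbrev W : Type := Fin 24 → ZMod 2

theorem norm_eq_card (w : W) : hammingNorm w = (support₂ w).card := rfl

theorem mem_supp (w : W) (a : Fin 24) : a ∈ support₂ w ↔ w a ≠ 0 := by
  show a ∈ Finset.univ.filter (fun a => w a ≠ 0) ↔ _
  simp

theorem z2_ne_zero {x : ZMod 2} : x ≠ 0 ↔ x = 1 := by revert x; decide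

/-- the word with a given support -/
def word (s : Finset (Fin 24)) : W := fun p => if p ∈ s then 1 else 0

theorem supp_word (s : Finset (Fin 24)) : support₂ (word s) = s := by
  ext p
  rw [mem_supp]
  unfold word
  by_cases h : p ∈ s <;> simp [h]

theorem word_supp (w : W) : word (support₂ w) = w := by
  funext p
  unfold word
  by_cases h : w p = 0
  · rw [if_neg (by rw [mem_supp]; exact fun h' => h' h), h]
  · rw [if_pos ((mem_supp w p).2 h)]
    exact (z2_ne_zero.1 h).symm

theorem supp_add (u v : W) : support₂ (u + v) = symmDiff (support₂ u) (support₂ v) := by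
  ext p
  simp only [mem_supp, Finset.mem_symmDiff, Pi.add_apply]
  generalize u p = a
  generalize v p = b
  revert a b; decide

theorem sub_eq_add' (u v : W) : u - v = u + v := by
  funext p
  simp only [Pi.sub_apply, Pi.add_apply]
  generalize u p = a
  generalize v p = b
  revert a b; decide

theorem norm_add (u v : W) :
    hammingNorm (u + v) + 2 * (support₂ u ∩ support₂ v).card = hammingNorm u + hammingNorm v := by
  rw [norm_eq_card, norm_eq_card, norm_eq_card, supp_add]
  generalize support₂ u = s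
  generalize support₂ v = t
  have h1 : symmDiff s t = (s ∪ t) \ (s ∩ t) := symmDiff_eq_sup_sdiff_inf s t
  have h2 := Finset.card_sdiff_add_card_eq_card
    (show s ∩ t ⊆ s ∪ t from Finset.inter_subset_union)
  have h3 := Finset.card_union_add_card_inter s t
  rw [h1]; omega

theorem dot_eq (u v : W) : ∑ i, u i * v i = ((support₂ u ∩ support₂ v).card : ZMod 2) := by
  rw [Finset.card_eq_sum_ones, Nat.cast_sum,
    ← Finset.sum_subset (Finset.subset_univ (support₂ u ∩ support₂ v))]
  · refine Finset.sum_congr rfl fun p hp => ?_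
    rw [Finset.mem_inter, mem_supp, mem_supp, z2_ne_zero, z2_ne_zero] at hp
    simp [hp.1, hp.2]
  · intro p _ hp
    rw [Finset.mem_inter, mem_supp, mem_supp] at hp
    by_cases hs : u p = 0
    · simp [hs]
    · have ht : v p = 0 := by by_contra h; exact hp ⟨hs, h⟩
      simp [ht]

theorem card_norm_eq (k : ℕ) :
    (Finset.univ.filter fun w : W => hammingNorm w = k).card = (24 : ℕ).choose k := by
  have : (Finset.powersetCard k (Finset.univ : Finset (Fin 24))).card = (24 : ℕ).choose k := by
    simp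
  rw [← this]
  apply Finset.card_bij (fun w _ => support₂ w)
  · intro w hw
    simp only [Finset.mem_filter, Finset.mem_univ, true_and] at hw
    simp [Finset.mem_powersetCard, ← norm_eq_card, hw]
  · intro u _ v _ h
    rw [← word_supp u, h, word_supp]
  · intro s hs
    refine ⟨word s, ?_, supp_word s⟩
    simp only [Finset.mem_powersetCard] at hs
    rw [Finset.mem_filter, norm_eq_card, supp_word]
    exact ⟨Finset.mem_univ _, hs.2⟩

/-- weight attached to a word -/
def c (u : W) : ℕ := if hammingNorm u ≤ 3 then 6 else if hammingNorm u = 4 then 1 else 0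

theorem sum_c : ∑ u : W, c u = 24576 := by
  rw [← Finset.sum_fiberwise_of_maps_to (t := Finset.range 25) (g := fun u : W => hammingNorm u)
    (fun u _ => by
      have : hammingNorm u ≤ Fintype.card (Fin 24) := hammingNorm_le_card_fintype
      simp at this ⊢; omega)]
  have : ∀ k ∈ Finset.range 25, ∑ u ∈ Finset.univ.filter (fun u : W => hammingNorm u = k), c u =
      (24 : ℕ).choose k * (if k ≤ 3 then 6 else if k = 4 then 1 else 0) := by
    intro k _
    rw [Finset.sum_congr rfl (g := fun _ => (if k ≤ 3 then 6 else if k = 4 then 1 else 0)),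
      Finset.sum_const, card_norm_eq, smul_eq_mul]
    intro u hu
    simp only [Finset.mem_filter, Finset.mem_univ, true_and] at hu
    simp only [c, hu]
  rw [Finset.sum_congr rfl this]
  decide +kernel

variable {C : Submodule (ZMod 2) W}

theorem close (hmin : ∀ w ∈ C, w ≠ 0 → 8 ≤ hammingNorm w) {u v : W} (h : u - v ∈ C) (hne : u ≠ v) :
    8 + 2 * (support₂ u ∩ support₂ v).card ≤ hammingNorm u + hammingNorm v := by
  have h1 := hmin _ h (sub_ne_zero.mpr hne)
  rw [sub_eq_add'] at h1
  have := norm_add u v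
  omega

/-- The two possible shapes of the set of small words in a coset. -/
theorem coset_shape (hdim : Module.finrank (ZMod 2) C = 12)
    (hmin : ∀ w ∈ C, w ≠ 0 → 8 ≤ hammingNorm w) (w : W) :
    (∃ u : W, {u : W | u - w ∈ C ∧ hammingNorm u ≤ 4} = {u} ∧ hammingNorm u ≤ 3) ∨
    ({u : W | u - w ∈ C ∧ hammingNorm u ≤ 4}.ncard = 6 ∧
      ∀ u ∈ {u : W | u - w ∈ C ∧ hammingNorm u ≤ 4}, hammingNorm u = 4 ∧
        ∀ u' ∈ {u : W | u - w ∈ C ∧ hammingNorm u ≤ 4}, u ≠ u' →
          Disjoint (support₂ u) (support₂ u')) := by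
  classical
  have hsub : ∀ w u v : W, u - w ∈ C → v - w ∈ C → u - v ∈ C := fun w u v hu hv => by
    have := C.sub_mem hu hv
    rwa [sub_sub_sub_cancel_right] at this
  have hsmall : ∀ w u : W, u - w ∈ C → hammingNorm u ≤ 3 →
      {u : W | u - w ∈ C ∧ hammingNorm u ≤ 4} = {u} := by
    intro w u hu h3
    ext v
    simp only [Set.mem_ofPred_eq, Set.mem_singleton_iff]
    constructor
    · rintro ⟨hv, h4⟩
      by_contra hne
      have := close hmin (hsub w v u hv hu) hne
      omega
    · rintro rfl; exact ⟨hu, by omega⟩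
  have hdisj : ∀ w u v : W, u - w ∈ C → v - w ∈ C → hammingNorm u ≤ 4 → hammingNorm v ≤ 4 →
      u ≠ v → Disjoint (support₂ u) (support₂ v) := by
    intro w u v hu hv h1 h2 hne
    have := close hmin (hsub w u v hu hv) hne
    rw [Finset.disjoint_iff_inter_eq_empty, ← Finset.card_eq_zero]
    omega
  let T : W → Finset W := fun w => Finset.univ.filter fun u => u - w ∈ C ∧ hammingNorm u ≤ 4
  have hT : ∀ w, (T w : Set W) = {u : W | u - w ∈ C ∧ hammingNorm u ≤ 4} := fun w => by
    ext u; simp [T]
  have hsum : ∀ w, ∑ u ∈ Finset.univ.filter (fun u => u - w ∈ C), c u = ∑ u ∈ T w, c u := by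
    intro w
    symm
    apply Finset.sum_subset
    · intro u hu
      simp only [T, Finset.mem_filter, Finset.mem_univ, true_and] at hu ⊢
      exact hu.1
    · intro u hu hu'
      simp only [T, Finset.mem_filter, Finset.mem_univ, true_and, not_and] at hu hu'
      have := hu' hu
      simp only [c]
      rw [if_neg (by omega), if_neg (by omega)]
  have hbig : ∀ w, (¬ ∃ u, u - w ∈ C ∧ hammingNorm u ≤ 3) →
      ∑ u ∈ T w, c u = (T w).card ∧ (T w).card ≤ 6 ∧ ∀ u ∈ T w, hammingNorm u = 4 := by
    intro w hw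
    have h4 : ∀ u ∈ T w, hammingNorm u = 4 := by
      intro u hu
      simp only [T, Finset.mem_filter, Finset.mem_univ, true_and] at hu
      by_contra h
      exact hw ⟨u, hu.1, by omega⟩
    refine ⟨?_, ?_, h4⟩
    · rw [Finset.card_eq_sum_ones]
      refine Finset.sum_congr rfl fun u hu => ?_
      simp [c, h4 u hu]
    · have h1 : ((T w).biUnion support₂).card = ∑ u ∈ T w, (support₂ u).card := by
        apply Finset.card_biUnion
        intro u hu v hv hne
        simp only [T, Finset.coe_filter, Finset.mem_univ, true_and, Set.mem_ofPred_eq] at hu hv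
        exact hdisj w u v hu.1 hv.1 hu.2 hv.2 hne
      have h2 : ((T w).biUnion support₂).card ≤ 24 := by
        simpa using Finset.card_le_univ ((T w).biUnion support₂)
      rw [h1, Finset.sum_congr rfl (f := fun u => (support₂ u).card) (g := fun _ => 4)
        (fun u hu => h4 u hu)] at h2
      simp at h2; omega
  have hle : ∀ w, ∑ u ∈ T w, c u ≤ 6 := by
    intro w
    by_cases hw : ∃ u, u - w ∈ C ∧ hammingNorm u ≤ 3
    · obtain ⟨u, hu, h3⟩ := hw
      have : T w = {u} := by
        apply Finset.coe_injective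
        rw [hT, hsmall w u hu h3, Finset.coe_singleton]
      rw [this, Finset.sum_singleton, c, if_pos h3]
    · obtain ⟨h1, h2, -⟩ := hbig w hw
      omega
  have hcard : Nat.card (W ⧸ C) = 4096 := by
    have h1 := Module.natCard_eq_pow_finrank (K := ZMod 2) (V := W ⧸ C)
    have h2 := C.finrank_quotient_add_finrank
    rw [hdim, Module.finrank_fintype_fun_eq_card, Fintype.card_fin] at h2
    rw [h1, Nat.card_zmod, show Module.finrank (ZMod 2) (W ⧸ C) = 12 by omega]
    rfl
  let _ : Fintype (W ⧸ C) := Fintype.ofFinite _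
  have htot : ∑ q : W ⧸ C, ∑ u ∈ T q.out, c u = ∑ _q : W ⧸ C, 6 := by
    rw [Finset.sum_const, Finset.card_univ, ← Nat.card_eq_fintype_card, hcard, smul_eq_mul]
    rw [show 4096 * 6 = 24576 from rfl, ← sum_c,
      ← Finset.sum_fiberwise (s := Finset.univ) (g := fun u : W => (Submodule.Quotient.mk u : W ⧸ C))]
    refine Finset.sum_congr rfl fun q _ => ?_
    rw [← hsum]
    congr 1
    ext u
    simp only [Finset.mem_filter, Finset.mem_univ, true_and]
    rw [← Submodule.Quotient.eq, show (Submodule.Quotient.mk q.out : W ⧸ C) = q from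
      Quotient.out_eq q]
  have heq := (Finset.sum_eq_sum_iff_of_le (fun q _ => hle q.out)).mp htot
    (Submodule.Quotient.mk w) (Finset.mem_univ _)
  have hTw : T (Submodule.Quotient.mk w : W ⧸ C).out = T w := by
    ext u
    simp only [T, Finset.mem_filter, Finset.mem_univ, true_and]
    rw [← Submodule.Quotient.eq, ← Submodule.Quotient.eq,
      show (Submodule.Quotient.mk (Submodule.Quotient.mk w : W ⧸ C).out : W ⧸ C) = _ from
      Quotient.out_eq _]
  rw [hTw] at heq
  by_cases hw : ∃ u, u - w ∈ C ∧ hammingNorm u ≤ 3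
  · obtain ⟨u, hu, h3⟩ := hw
    exact Or.inl ⟨u, hsmall w u hu h3, h3⟩
  · obtain ⟨h1, -, h3⟩ := hbig w hw
    right
    refine ⟨by rw [← hT, Set.ncard_coe_finset]; omega, fun u hu => ⟨h3 u ?_, fun u' hu' hne =>
      hdisj w u u' hu.1 hu'.1 hu.2 hu'.2 hne⟩⟩
    rw [← Finset.mem_coe, hT]; exact hu

theorem exists_small (hdim : Module.finrank (ZMod 2) C = 12)
    (hmin : ∀ w ∈ C, w ≠ 0 → 8 ≤ hammingNorm w) (w : W) : ∃ u, u - w ∈ C ∧ hammingNorm u ≤ 4 := by
  rcases coset_shape hdim hmin w with ⟨u, hu, -⟩ | ⟨h, -⟩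
  · exact ⟨u, show u ∈ {u : W | u - w ∈ C ∧ hammingNorm u ≤ 4} from hu ▸ rfl⟩
  · exact Set.nonempty_of_ncard_ne_zero (s := {u : W | u - w ∈ C ∧ hammingNorm u ≤ 4}) (by omega)

theorem even_inter (horth : ∀ v ∈ C, ∀ w ∈ C, ∑ i, v i * w i = 0) {u v : W} (hu : u ∈ C)
    (hv : v ∈ C) : Even (support₂ u ∩ support₂ v).card := by
  have := horth u hu v hv
  rw [dot_eq] at this
  exact (ZMod.natCast_eq_zero_iff_even).1 this

/-- Every 5-set lies in an octad. -/
theorem exists_octad (hdim : Module.finrank (ZMod 2) C = 12)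
    (horth : ∀ v ∈ C, ∀ w ∈ C, ∑ i, v i * w i = 0)
    (hmin : ∀ w ∈ C, w ≠ 0 → 8 ≤ hammingNorm w) (s : Finset (Fin 24)) (hs : s.card = 5) :
    ∃ o ∈ C, hammingNorm o = 8 ∧ s ⊆ support₂ o := by
  obtain ⟨u, hu, h4⟩ := exists_small hdim hmin (word s)
  have h5 : hammingNorm (word s) = 5 := by rw [norm_eq_card, supp_word, hs]
  have hne : u ≠ word s := by rintro rfl; omega
  have h1 := hmin _ hu (sub_ne_zero.mpr hne)
  have h2 := even_inter horth hu hu
  rw [Finset.inter_self, ← norm_eq_card, Nat.even_iff] at h2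
  rw [sub_eq_add'] at h1 h2 hu
  have h3 := norm_add u (word s)
  refine ⟨_, hu, by omega, ?_⟩
  have h0 : (support₂ u ∩ support₂ (word s)).card = 0 := by omega
  rw [Finset.card_eq_zero, supp_word] at h0
  rw [supp_add, supp_word]
  intro p hp
  rw [Finset.mem_symmDiff]
  right
  refine ⟨hp, fun h => ?_⟩
  have : p ∈ support₂ u ∩ s := Finset.mem_inter.mpr ⟨h, hp⟩
  rw [h0] at this
  simp at this

/-- Induction over the code along octads. -/
theorem octad_induction (hdim : Module.finrank (ZMod 2) C = 12)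
    (horth : ∀ v ∈ C, ∀ w ∈ C, ∑ i, v i * w i = 0)
    (hmin : ∀ w ∈ C, w ≠ 0 → 8 ≤ hammingNorm w) {P : W → Prop} (h0 : P 0)
    (hadd : ∀ w ∈ C, ∀ o ∈ C, hammingNorm o = 8 → P w → P (w + o)) : ∀ w ∈ C, P w := by
  intro w hw
  induction hn : hammingNorm w using Nat.strong_induction_on generalizing w with
  | _ n ih =>
    by_cases h : w = 0
    · rw [h]; exact h0
    have h8 := hmin w hw h
    obtain ⟨s, hs, hs5⟩ := Finset.exists_subset_card_eq (s := support₂ w) (n := 5)
      (by rw [← norm_eq_card]; omega)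
    obtain ⟨o, ho, ho8, hso⟩ := exists_octad hdim horth hmin s hs5
    have h1 := norm_add w o
    have h2 : 5 ≤ (support₂ w ∩ support₂ o).card := by
      rw [← hs5]; exact Finset.card_le_card (Finset.subset_inter hs hso)
    have h3 := hadd _ (C.add_mem hw ho) o ho ho8 (ih _ (by omega) _ (C.add_mem hw ho) rfl)
    rwa [add_assoc, ← sub_eq_add' o o, sub_self, add_zero] at h3

theorem eqns : True := by
  have := @word.eq_def
  have := @word.eq_1
  have := @c.eq_def
  have := @c.eq_1
  trivial

end H96.AbsGolay
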