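import Mathlib
import Cfsg.Prelude.Def_Sporadic_a
import Cfsg.Agent.Lib.Spor55.Design

/-! Projective planes of order 4: arcs, hyperovals and counting. -/

set_option autoImplicit false
set_option linter.unusedSectionVars false

namespace H96.Plane4

open Cfsg Finset

variable {α : Type*} [Fintype α] [DecidableEq α] {L : Set (Finset α)}

/-- no line meets `S` in more than two points -/
def Arc (L : Set (Finset α)) (S : Finset α) : Prop := ∀ l ∈ L, (l ∩ S).card ≤ 2

theorem Arc.mono {S T : Finset α} (h : Arc L T) (hST : S ⊆ T) : Arc L S := fun l hl =>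
  (card_le_card (inter_subset_inter_left hST)).trans (h l hl)

theorem exists_line (hL : IsSteinerSystem 2 5 L) {p q : α} (h : p ≠ q) :
    ∃ l ∈ L, p ∈ l ∧ q ∈ l := by
  obtain ⟨l, ⟨hl, hs⟩, -⟩ := hL.2 {p, q} (card_pair h)
  exact ⟨l, hl, hs (by simp), hs (by simp)⟩

theorem line_eq (hL : IsSteinerSystem 2 5 L) {l m : Finset α} (hl : l ∈ L) (hm : m ∈ L) {p q : α}
    (h : p ≠ q) (h1 : p ∈ l) (h2 : q ∈ l) (h3 : p ∈ m) (h4 : q ∈ m) : l = m := by
  apply H55.Design.steiner_unique hL hl hm
  rw [← card_pair h]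
  apply card_le_card
  intro x hx
  simp only [mem_insert, mem_singleton] at hx
  rcases hx with rfl | rfl <;> simp [*]

open Classical in
/-- the lines through a point -/
noncomputable def thru (L : Set (Finset α)) (a : α) : Finset (Finset α) :=
  univ.filter fun l => l ∈ L ∧ a ∈ l

theorem mem_thru {a : α} {l : Finset α} : l ∈ thru L a ↔ l ∈ L ∧ a ∈ l := by simp [thru]

theorem card_thru (hα : Fintype.card α = 21) (hL : IsSteinerSystem 2 5 L) (a : α) :
    (thru L a).card = 5 := by
  have h := H55.Design.cnt_mul_choose hL {a} (by simp)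
  have e : H55.Design.cnt L {a} ∅ = (thru L a).card := by
    rw [← Set.ncard_coe_finset]
    show Set.ncard _ = _
    congr 1
    ext l
    simp [mem_thru]
  rw [e, hα] at h
  simp at h
  omega

/-- The lines through `a` meeting a set `X ∌ a`, no two points of which are collinear with `a`. -/
theorem card_thru_meeting (hL : IsSteinerSystem 2 5 L) (a : α) (X : Finset α) (ha : a ∉ X)
    (hX : ∀ l ∈ L, a ∈ l → (l ∩ X).card ≤ 1) :
    ((thru L a).filter fun l => (l ∩ X).Nonempty).card = X.card := by
  have := card_mul_eq_card_mul (s := (thru L a).filter fun l => (l ∩ X).Nonempty) (t := X)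
    (fun l x => x ∈ l) (m := 1) (n := 1) ?_ ?_
  · simpa using this
  · intro l hl
    rw [mem_filter, mem_thru] at hl
    have : X.bipartiteAbove (fun l x => x ∈ l) l = l ∩ X := by
      ext x; simp [mem_bipartiteAbove, and_comm]
    rw [this]
    have h1 := hX l hl.1.1 hl.1.2
    have h2 := hl.2.card_pos
    omega
  · intro x hx
    have hax : a ≠ x := by rintro rfl; exact ha hx
    obtain ⟨l, hl, h1, h2⟩ := exists_line hL hax
    rw [card_eq_one]
    refine ⟨l, ?_⟩
    ext m
    simp only [mem_bipartiteBelow, mem_filter, mem_thru, mem_singleton]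
    constructor
    · rintro ⟨⟨⟨h3, h4⟩, -⟩, h5⟩
      exact line_eq hL h3 hl hax h4 h5 h1 h2
    · rintro rfl
      exact ⟨⟨⟨hl, h1⟩, ⟨x, mem_inter.mpr ⟨h2, hx⟩⟩⟩, h2⟩

theorem lines_meet (hα : Fintype.card α = 21) (hL : IsSteinerSystem 2 5 L) {l m : Finset α}
    (hl : l ∈ L) (hm : m ∈ L) : ∃ p, p ∈ l ∧ p ∈ m := by
  by_contra hne
  push Not at hne
  obtain ⟨a, ha⟩ : m.Nonempty := by rw [← card_pos, hL.1 m hm]; norm_num
  have hal : a ∉ l := fun h => hne a h ha
  have h1 := card_thru_meeting hL a l hal (fun k hk hak => by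
    by_contra h
    have := H55.Design.steiner_unique hL hk hl (by omega)
    exact hal (this ▸ hak))
  rw [hL.1 l hl, ← card_thru hα hL a] at h1
  have h2 := eq_of_subset_of_card_le (filter_subset _ _) h1.ge
  have h3 : m ∈ thru L a := mem_thru.mpr ⟨hm, ha⟩
  rw [← h2, mem_filter] at h3
  obtain ⟨x, hx⟩ := h3.2
  rw [mem_inter] at hx
  exact hne x hx.2 hx.1

open Classical in
/-- the points extending an arc -/
noncomputable def ext (L : Set (Finset α)) (S : Finset α) : Finset α :=
  univ.filter fun p => p ∉ S ∧ Arc L (insert p S)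

theorem mem_ext {S : Finset α} {p : α} : p ∈ ext L S ↔ p ∉ S ∧ Arc L (insert p S) := by simp [ext]

theorem not_arc_insert {S : Finset α} (hS : Arc L S) {p : α} (hp : p ∉ S) :
    ¬ Arc L (insert p S) ↔ ∃ m ∈ L, p ∈ m ∧ (m ∩ S).card = 2 := by
  constructor
  · intro h
    simp only [Arc, not_forall, not_le] at h
    obtain ⟨m, hm, h⟩ := h
    have h1 := hS m hm
    by_cases hpm : p ∈ m
    · rw [inter_insert_of_mem hpm, card_insert_of_notMem (by simp [hp])] at h
      exact ⟨m, hm, hpm, by omega⟩
    · rw [inter_insert_of_notMem hpm] at h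
      omega
  · rintro ⟨m, hm, hpm, h⟩ h'
    have := h' m hm
    rw [inter_insert_of_mem hpm, card_insert_of_notMem (by simp [hp])] at this
    omega

/-- Extension points on a tangent line of an arc with at most four points. -/
theorem card_tangent_ext (hα : Fintype.card α = 21) (hL : IsSteinerSystem 2 5 L) {S : Finset α}
    (hS : Arc L S) (h4 : S.card ≤ 4) {a : α} (ha : a ∈ S) {l : Finset α} (hl : l ∈ L) (hal : a ∈ l)
    (ht : ¬ (l ∩ S.erase a).Nonempty) :
    (l ∩ ext L S).card + (S.card - 1).choose 2 = 4 := by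
  classical
  have hlS : ∀ x ∈ l, x ∈ S → x = a := fun x hx hxS => by
    by_contra h
    exact ht ⟨x, mem_inter.mpr ⟨hx, mem_erase.mpr ⟨h, hxS⟩⟩⟩
  have h1 : ((l.erase a).filter fun p => p ∈ ext L S).card +
      ((l.erase a).filter fun p => ¬ p ∈ ext L S).card = 4 := by
    rw [card_filter_add_card_filter_not, card_erase_of_mem hal, hL.1 l hl]
  have h2 : (l.erase a).filter (fun p => p ∈ ext L S) = l ∩ ext L S := by
    ext p
    simp only [mem_filter, mem_erase, mem_inter, mem_ext]
    constructor
    · tauto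
    · rintro ⟨h, h', h''⟩
      exact ⟨⟨by rintro rfl; exact h' ha, h⟩, h', h''⟩
  rw [← h2, ← h1]
  congr 1
  rw [← card_erase_of_mem ha, ← card_powersetCard]
  have := card_mul_eq_card_mul (s := powersetCard 2 (S.erase a))
    (t := (l.erase a).filter fun p => ¬ p ∈ ext L S)
    (fun D p => ∃ m ∈ L, p ∈ m ∧ D ⊆ m) (m := 1) (n := 1) ?_ ?_
  · simpa using this
  · intro D hD
    rw [mem_powersetCard] at hD
    obtain ⟨m, ⟨hm, hDm⟩, hu⟩ := hL.2 D hD.2
    have hmS : (m ∩ S).card = 2 := by
      apply le_antisymm (hS m hm)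
      rw [← hD.2]
      exact card_le_card (subset_inter hDm (hD.1.trans (erase_subset _ _)))
    have ham : a ∉ m := by
      intro h
      have : insert a D ⊆ m ∩ S := insert_subset (mem_inter.mpr ⟨h, ha⟩)
        (subset_inter hDm (hD.1.trans (erase_subset _ _)))
      have h5 := card_le_card this
      rw [card_insert_of_notMem (fun h => by simpa using hD.1 h)] at h5
      omega
    obtain ⟨p, hp1, hp2⟩ := lines_meet hα hL hl hm
    have hpa : p ≠ a := by rintro rfl; exact ham hp2
    rw [card_eq_one]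
    refine ⟨p, ?_⟩
    ext q
    simp only [mem_bipartiteAbove, mem_filter, mem_erase, mem_singleton]
    constructor
    · rintro ⟨⟨⟨-, hq⟩, -⟩, m', hm', hq', hDm'⟩
      rw [hu m' ⟨hm', hDm'⟩] at hq'
      by_contra hne
      exact ham (line_eq hL hl hm hne hq hp1 hq' hp2 ▸ hal)
    · rintro rfl
      have hqS : q ∉ S := fun h => hpa (hlS q hp1 h)
      refine ⟨⟨⟨hpa, hp1⟩, fun h => ?_⟩, m, hm, hp2, hDm⟩
      exact (not_arc_insert hS hqS).mpr ⟨m, hm, hp2, hmS⟩ (mem_ext.mp h).2
  · intro p hp
    simp only [mem_filter, mem_erase, mem_ext, not_and] at hp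
    obtain ⟨⟨hpa, hpl⟩, hp⟩ := hp
    have hpS : p ∉ S := fun h => hpa (hlS p hpl h)
    obtain ⟨m, hm, hpm, hmS⟩ := (not_arc_insert hS hpS).mp (hp hpS)
    have key : ∀ m ∈ L, p ∈ m → 2 ≤ (m ∩ S).card → a ∉ m := by
      intro m hm hpm h2 ham
      have := line_eq hL hm hl hpa hpm ham hpl hal
      rw [this] at h2
      have : l ∩ S ⊆ {a} := fun x hx => by
        rw [mem_inter] at hx; simpa using hlS x hx.1 hx.2
      have := card_le_card this
      simp at this; omega
    have hsub : m ∩ S ⊆ S.erase a := fun x hx => by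
      rw [mem_inter] at hx
      exact mem_erase.mpr ⟨by rintro rfl; exact key m hm hpm hmS.ge hx.1, hx.2⟩
    rw [card_eq_one]
    refine ⟨m ∩ S, ?_⟩
    ext D
    simp only [mem_bipartiteBelow, mem_powersetCard, mem_singleton]
    constructor
    · rintro ⟨⟨hD1, hD2⟩, m', hm', hpm', hDm'⟩
      have h5 : (D ∩ (m ∩ S)).Nonempty := by
        rw [← card_pos]
        have h6 := card_union_add_card_inter D (m ∩ S)
        have h7 := card_le_card (union_subset hD1 hsub)
        rw [card_erase_of_mem ha] at h7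
        omega
      obtain ⟨b, hb⟩ := h5
      simp only [mem_inter] at hb
      have hpb : p ≠ b := by rintro rfl; exact hpS hb.2.2
      have := line_eq hL hm' hm hpb hpm' (hDm' hb.1) hpm hb.2.1
      subst this
      exact eq_of_subset_of_card_le (subset_inter hDm' (hD1.trans (erase_subset _ _))) (by omega)
    · rintro rfl
      exact ⟨⟨hsub, hmS⟩, m, hm, hpm, inter_subset_left⟩

theorem card_tangents (hα : Fintype.card α = 21) (hL : IsSteinerSystem 2 5 L) {S : Finset α}
    (hS : Arc L S) {a : α} (ha : a ∈ S) :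
    ((thru L a).filter fun l => ¬ (l ∩ S.erase a).Nonempty).card + (S.card - 1) = 5 := by
  have h1 := card_thru_meeting hL a (S.erase a) (by simp) (fun l hl hal => by
    have := hS l hl
    rw [← insert_erase ha, inter_insert_of_mem hal, card_insert_of_notMem (by simp)] at this
    omega)
  rw [← card_erase_of_mem ha, ← h1, add_comm, card_filter_add_card_filter_not, card_thru hα hL]

theorem card_ext (hα : Fintype.card α = 21) (hL : IsSteinerSystem 2 5 L) {S : Finset α}
    (hS : Arc L S) (h1 : 1 ≤ S.card) (h4 : S.card ≤ 4) :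
    (ext L S).card = (6 - S.card) * (4 - (S.card - 1).choose 2) := by
  classical
  obtain ⟨a, ha⟩ : S.Nonempty := card_pos.mp h1
  have h2 := card_tangents hα hL hS ha
  have := card_mul_eq_card_mul (s := (thru L a).filter fun l => ¬ (l ∩ S.erase a).Nonempty)
    (t := ext L S) (fun l p => p ∈ l) (m := 4 - (S.card - 1).choose 2) (n := 1) ?_ ?_
  · rw [mul_one] at this
    rw [← this]
    congr 1
    omega
  · intro l hl
    rw [mem_filter, mem_thru] at hl
    have := card_tangent_ext hα hL hS h4 ha hl.1.1 hl.1.2 hl.2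
    have e : (ext L S).bipartiteAbove (fun l p => p ∈ l) l = l ∩ ext L S := by
      ext x; simp [mem_bipartiteAbove, and_comm]
    rw [e]; omega
  · intro p hp
    rw [mem_ext] at hp
    have hap : a ≠ p := by rintro rfl; exact hp.1 ha
    obtain ⟨l, hl, h3, h4⟩ := exists_line hL hap
    rw [card_eq_one]
    refine ⟨l, ?_⟩
    ext m
    simp only [mem_bipartiteBelow, mem_filter, mem_thru, mem_singleton]
    constructor
    · rintro ⟨⟨⟨h5, h6⟩, -⟩, h7⟩
      exact line_eq hL h5 hl hap h6 h7 h3 h4
    · rintro rfl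
      refine ⟨⟨⟨hl, h3⟩, ?_⟩, h4⟩
      rintro ⟨b, hb⟩
      simp only [mem_inter, mem_erase] at hb
      have h8 := hp.2 m hl
      have : ({p, a, b} : Finset α) ⊆ m ∩ insert p S := by
        intro x hx
        simp only [mem_insert, mem_singleton] at hx
        rcases hx with rfl | rfl | rfl <;> simp [*]
      have h9 := card_le_card this
      rw [card_eq_three.mpr ⟨p, a, b, hap.symm, by rintro rfl; exact hp.1 hb.2.2, hb.2.1.symm, rfl⟩]
        at h9
      omega

/-- Every 4-arc lies in exactly one hyperoval. -/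
theorem exists_unique_hyperoval (hα : Fintype.card α = 21) (hL : IsSteinerSystem 2 5 L)
    {S : Finset α} (hS : Arc L S) (h4 : S.card = 4) :
    ∃! H : Finset α, (H.card = 6 ∧ Arc L H) ∧ S ⊆ H := by
  have h2 : (ext L S).card = 2 := by
    rw [card_ext hα hL hS (by omega) h4.le, h4]; rfl
  have hd : Disjoint S (ext L S) := disjoint_left.mpr fun x hx h => (mem_ext.mp h).1 hx
  have hc : (S ∪ ext L S).card = 6 := by rw [card_union_of_disjoint hd]; omega
  refine ⟨S ∪ ext L S, ⟨⟨hc, ?_⟩, subset_union_left⟩, ?_⟩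
  · intro l hl
    rw [inter_union_distrib_left]
    have h5 := card_union_le (l ∩ S) (l ∩ ext L S)
    have h6 := hS l hl
    have h7 : (l ∩ ext L S).card ≤ 2 := h2 ▸ card_le_card inter_subset_right
    by_cases h0 : (l ∩ S).card = 0
    · omega
    by_cases h1 : (l ∩ S).card = 1
    · obtain ⟨a, ha⟩ := card_eq_one.mp h1
      have ha' : a ∈ l ∩ S := ha ▸ mem_singleton_self a
      rw [mem_inter] at ha'
      have := card_tangent_ext hα hL hS h4.le ha'.2 hl ha'.1 (by
        rintro ⟨b, hb⟩
        simp only [mem_inter, mem_erase] at hb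
        have : b ∈ l ∩ S := mem_inter.mpr ⟨hb.1, hb.2.2⟩
        rw [ha, mem_singleton] at this
        exact hb.2.1 this)
      rw [h4] at this
      simp at this
      omega
    · have : (l ∩ ext L S).card = 0 := by
        rw [card_eq_zero, eq_empty_iff_forall_notMem]
        intro p hp
        rw [mem_inter, mem_ext] at hp
        exact (not_arc_insert hS hp.2.1).mpr ⟨l, hl, hp.1, by omega⟩ hp.2.2
      omega
  · rintro H ⟨⟨hH6, hH⟩, hSH⟩
    apply eq_of_subset_of_card_le _ (by omega)
    intro p hp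
    by_cases hpS : p ∈ S
    · exact mem_union_left _ hpS
    · exact mem_union_right _ (mem_ext.mpr ⟨hpS, hH.mono (insert_subset hp hSH)⟩)

open Classical in
/-- the arcs with `k` points -/
noncomputable def arcs (L : Set (Finset α)) (k : ℕ) : Finset (Finset α) :=
  univ.filter fun S => S.card = k ∧ Arc L S

theorem mem_arcs {k : ℕ} {S : Finset α} : S ∈ arcs L k ↔ S.card = k ∧ Arc L S := by simp [arcs]

theorem card_below {j k : ℕ} {T : Finset α} (hT : T ∈ arcs L k) :
    ((arcs L j).bipartiteBelow (fun S T => S ⊆ T) T).card = k.choose j := by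
  rw [mem_arcs] at hT
  rw [← hT.1, ← card_powersetCard]
  congr 1
  ext S
  simp only [mem_bipartiteBelow, mem_arcs, mem_powersetCard]
  exact ⟨fun h => ⟨h.2, h.1.1⟩, fun h => ⟨⟨h.2, hT.2.mono h.1⟩, h.1⟩⟩

theorem card_arcs_succ (hα : Fintype.card α = 21) (hL : IsSteinerSystem 2 5 L) {k : ℕ}
    (h1 : 1 ≤ k) (h4 : k ≤ 4) :
    (arcs L k).card * ((6 - k) * (4 - (k - 1).choose 2)) = (arcs L (k + 1)).card * (k + 1) := by
  apply card_mul_eq_card_mul (fun S T => S ⊆ T)
  · intro S hS
    rw [mem_arcs] at hS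
    rw [← hS.1, ← card_ext hα hL hS.2 (by omega) (by omega)]
    symm
    apply card_bij (fun p _ => insert p S)
    · intro p hp
      rw [mem_ext] at hp
      simp only [mem_bipartiteAbove, mem_arcs]
      exact ⟨⟨card_insert_of_notMem hp.1, hp.2⟩, subset_insert _ _⟩
    · intro p hp q _ h
      rw [mem_ext] at hp
      have : p ∈ insert q S := h ▸ mem_insert_self p S
      exact (mem_insert.mp this).resolve_right hp.1
    · intro T hT
      simp only [mem_bipartiteAbove, mem_arcs] at hT
      obtain ⟨p, hp, rfl⟩ := exists_eq_insert_iff.mpr ⟨hT.2, hT.1.1.symm⟩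
      exact ⟨p, mem_ext.mpr ⟨hp, hT.1.2⟩, rfl⟩
  · intro T hT
    rw [card_below hT]; simp

theorem card_arcs_one (hα : Fintype.card α = 21) : (arcs L 1).card = 21 := by
  have : arcs L 1 = powersetCard 1 univ := by
    ext S
    simp only [mem_arcs, mem_powersetCard, subset_univ, true_and]
    refine ⟨fun h => h.1, fun h => ⟨h, fun l _ => ?_⟩⟩
    have := card_le_card (inter_subset_right (s₁ := l) (s₂ := S))
    omega
  rw [this, card_powersetCard, card_univ, hα]; rfl

theorem card_arcs_four (hα : Fintype.card α = 21) (hL : IsSteinerSystem 2 5 L) :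
    (arcs L 4).card = 2520 := by
  have h1 := card_arcs_one (L := L) hα
  have h2 := card_arcs_succ hα hL (k := 1) (by norm_num) (by norm_num)
  have h3 := card_arcs_succ hα hL (k := 2) (by norm_num) (by norm_num)
  have h4 := card_arcs_succ hα hL (k := 3) (by norm_num) (by norm_num)
  norm_num [Nat.choose] at h2 h3 h4
  omega

theorem card_arcs_six (hα : Fintype.card α = 21) (hL : IsSteinerSystem 2 5 L) :
    (arcs L 6).card = 168 := by
  have h1 := card_arcs_four hα hL
  have := card_mul_eq_card_mul (s := arcs L 4) (t := arcs L 6) (fun S T => S ⊆ T) (m := 1) (n := 15)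
    ?_ (fun T hT => by rw [card_below hT]; rfl)
  · omega
  · intro S hS
    rw [mem_arcs] at hS
    obtain ⟨H, hH, hu⟩ := exists_unique_hyperoval hα hL hS.2 hS.1
    rw [card_eq_one]
    refine ⟨H, ?_⟩
    ext T
    simp only [mem_bipartiteAbove, mem_arcs, mem_singleton]
    exact ⟨hu T, by rintro rfl; exact hH⟩

theorem eqns : True := by
  have := @Arc.eq_def.{0}
  have := @Arc.eq_1.{0}
  have := @thru.eq_def.{0}
  have := @thru.eq_1.{0}
  have := @ext.eq_def.{0}
  have := @ext.eq_1.{0}
  have := @arcs.eq_def.{0}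
  have := @arcs.eq_1.{0}
  trivial

end H96.Plane4
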