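import Mathlib
import Cfsg.Agent.Lib.Spor96.Plane4

/-! The duad/syntheme model of the projective plane of order 4, and strong uniqueness. -/

set_option autoImplicit false
set_option linter.unusedSectionVars false

namespace H96.Plane4

open Cfsg Finset

/-- model points: six hyperoval points and fifteen synthemes -/
abbrev Pt : Type := Fin 6 ⊕ Fin 15

/-- the partner of `i` in the syntheme `s` -/
def par : Fin 15 → Fin 6 → Fin 6 :=
  ![![1, 0, 3, 2, 5, 4], ![1, 0, 4, 5, 2, 3], ![1, 0, 5, 4, 3, 2], ![2, 3, 0, 1, 5, 4],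
    ![2, 4, 0, 5, 1, 3], ![2, 5, 0, 4, 3, 1], ![3, 2, 1, 0, 5, 4], ![3, 4, 5, 0, 1, 2],
    ![3, 5, 4, 0, 2, 1], ![4, 2, 1, 5, 0, 3], ![4, 3, 5, 1, 0, 2], ![4, 5, 3, 2, 0, 1],
    ![5, 2, 1, 4, 3, 0], ![5, 3, 4, 1, 2, 0], ![5, 4, 3, 2, 1, 0]]

/-- a second index, outside the duad of `0` -/
def k1 (s : Fin 15) : Fin 6 := if par s 0 = 1 then 2 else 1

open Sum in
/-- the model lines -/
def mline : Fin 21 → Finset Pt :=
  ![{inl 0, inl 1, inr 0, inr 1, inr 2}, {inl 0, inl 2, inr 3, inr 4, inr 5},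
    {inl 0, inl 3, inr 6, inr 7, inr 8}, {inl 0, inl 4, inr 9, inr 10, inr 11},
    {inl 0, inl 5, inr 12, inr 13, inr 14}, {inl 1, inl 2, inr 6, inr 9, inr 12},
    {inl 1, inl 3, inr 3, inr 10, inr 13}, {inl 1, inl 4, inr 4, inr 7, inr 14},
    {inl 1, inl 5, inr 5, inr 8, inr 11}, {inl 2, inl 3, inr 0, inr 11, inr 14},
    {inl 2, inl 4, inr 1, inr 8, inr 13}, {inl 2, inl 5, inr 2, inr 7, inr 10},
    {inl 3, inl 4, inr 2, inr 5, inr 12}, {inl 3, inl 5, inr 1, inr 4, inr 9},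
    {inl 4, inl 5, inr 0, inr 3, inr 6}, {inr 0, inr 4, inr 8, inr 10, inr 12},
    {inr 0, inr 5, inr 7, inr 9, inr 13}, {inr 1, inr 3, inr 7, inr 11, inr 12},
    {inr 1, inr 5, inr 6, inr 10, inr 14}, {inr 2, inr 3, inr 8, inr 9, inr 14},
    {inr 2, inr 4, inr 6, inr 11, inr 13}]

theorem m1 : ∀ n, (mline n).card = 5 := by decide +kernel
theorem m2 : ∀ n n', n = n' ∨ (mline n ∩ mline n').card ≤ 1 := by decide +kernel
theorem m3 : ∀ i j : Fin 6, i ≠ j → ∃ n, (∀ k, Sum.inl k ∈ mline n → k = i ∨ k = j) ∧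
    ∀ s, Sum.inr s ∈ mline n → par s i = j := by decide +kernel
theorem m4 : ∀ s t : Fin 15, (∀ i, par s i ≠ par t i) → ∃ n, Sum.inr s ∈ mline n ∧
    Sum.inr t ∈ mline n ∧ ∀ u, (∀ i, par u i ≠ par s i) → (∀ i, par u i ≠ par t i) →
      Sum.inr u ∈ mline n ∨ ∀ v, (∀ i, par v i ≠ par s i) → (∀ i, par v i ≠ par t i) →
        ¬ (∀ i, par v i ≠ par u i) := by decide +kernel
theorem m5 : ∀ s i, par s i ≠ i := by decide +kernel
theorem m6 : ∀ s t, (∀ i, par s i = par t i) → s = t := by decide +kernel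
theorem m7 : ∀ s i, par s (par s i) = i := by decide +kernel
theorem m8 : ∀ s, k1 s ≠ 0 ∧ k1 s ≠ par s 0 := by decide +kernel
theorem m9 : ∀ s i, (i = 0 ∨ i = par s 0) ∨ (i = k1 s ∨ i = par s (k1 s)) ∨
    ∀ j, j ≠ i → (j = 0 ∨ j = par s 0) ∨ (j = k1 s ∨ j = par s (k1 s)) ∨ j = par s i := by
  decide +kernel

variable {α : Type*} [Fintype α] [DecidableEq α] {L : Set (Finset α)}

theorem three_not_collinear {h : Fin 6 → α} (hinj : Function.Injective h)
    (harc : Arc L (univ.image h)) {l : Finset α} (hl : l ∈ L) {i j k : Fin 6} (hij : i ≠ j)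
    (hi : h i ∈ l) (hj : h j ∈ l) (hk : h k ∈ l) : k = i ∨ k = j := by
  by_contra hne
  push Not at hne
  have h1 := harc l hl
  have : ({h i, h j, h k} : Finset α) ⊆ l ∩ univ.image h := by
    intro x hx
    simp only [mem_insert, mem_singleton] at hx
    rcases hx with rfl | rfl | rfl <;> simp [*]
  have h2 := card_le_card this
  rw [card_eq_three.mpr ⟨h i, h j, h k, hinj.ne hij, hinj.ne hne.1.symm, hinj.ne hne.2.symm, rfl⟩]
    at h2
  omega

theorem second_point (hα : Fintype.card α = 21) (hL : IsSteinerSystem 2 5 L) {h : Fin 6 → α}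
    (hinj : Function.Injective h) (harc : Arc L (univ.image h)) {l : Finset α} (hl : l ∈ L)
    {i : Fin 6} (hi : h i ∈ l) : ∃ j, j ≠ i ∧ h j ∈ l := by
  have h1 := card_tangents hα hL harc (a := h i) (by simp)
  rw [card_image_of_injective _ hinj] at h1
  simp only [card_univ, Fintype.card_fin] at h1
  have h2 : ((thru L (h i)).filter fun l => ¬ (l ∩ (univ.image h).erase (h i)).Nonempty) = ∅ := by
    rw [← card_eq_zero]; omega
  have h3 := filter_eq_empty_iff.mp h2 (mem_thru.mpr ⟨hl, hi⟩)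
  obtain ⟨x, hx⟩ := not_not.mp h3
  simp only [mem_inter, mem_erase, mem_image, mem_univ, true_and] at hx
  obtain ⟨hx1, hx2, j, rfl⟩ := hx
  exact ⟨j, fun e => hx2 (by rw [e]), hx1⟩

/-- Strong uniqueness: any ordered hyperoval extends to an isomorphism from the model. -/
theorem exists_iso (hα : Fintype.card α = 21) (hL : IsSteinerSystem 2 5 L) {h : Fin 6 → α}
    (hinj : Function.Injective h) (harc : Arc L (univ.image h)) :
    ∃ e : Pt ≃ α, (∀ i, e (Sum.inl i) = h i) ∧ ∀ l, l ∈ L ↔ ∃ n, l = (mline n).image e := by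
  have hex : ∀ s : Fin 15, ∃ x : α, (∀ i, h i ≠ x) ∧
      ∀ i, ∃ l ∈ L, x ∈ l ∧ h i ∈ l ∧ h (par s i) ∈ l := by
    intro s
    obtain ⟨l1, hl1, a1, b1⟩ := exists_line hL (hinj.ne (m5 s 0).symm)
    obtain ⟨l2, hl2, a2, b2⟩ := exists_line hL (hinj.ne (m5 s (k1 s)).symm)
    obtain ⟨x, hx1, hx2⟩ := lines_meet hα hL hl1 hl2
    have hx : ∀ i, h i ≠ x := by
      rintro i rfl
      have c1 := three_not_collinear hinj harc hl1 (m5 s 0).symm a1 b1 hx1
      have c2 := three_not_collinear hinj harc hl2 (m5 s (k1 s)).symm a2 b2 hx2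
      have c3 := m8 s
      have c4 := m7 s 0
      have c5 := m7 s (k1 s)
      rcases c1 with c1 | c1 <;> rcases c2 with c2 | c2
      · exact c3.1 (c2.symm.trans c1)
      · rw [c1] at c2; rw [← c2] at c5; exact c3.2 c5.symm
      · exact c3.2 (c2.symm.trans c1)
      · rw [c1] at c2; rw [c2, c5] at c4; exact c3.1 c4
    refine ⟨x, hx, fun i => ?_⟩
    have k1' : ∀ j, (j = 0 ∨ j = par s 0) → h j ∈ l1 ∧ h (par s j) ∈ l1 := by
      rintro j (rfl | rfl)
      · exact ⟨a1, b1⟩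
      · rw [m7]; exact ⟨b1, a1⟩
    have k2' : ∀ j, (j = k1 s ∨ j = par s (k1 s)) → h j ∈ l2 ∧ h (par s j) ∈ l2 := by
      rintro j (rfl | rfl)
      · exact ⟨a2, b2⟩
      · rw [m7]; exact ⟨b2, a2⟩
    by_cases c1 : i = 0 ∨ i = par s 0
    · exact ⟨l1, hl1, hx1, k1' i c1⟩
    by_cases c2 : i = k1 s ∨ i = par s (k1 s)
    · exact ⟨l2, hl2, hx2, k2' i c2⟩
    have c3 := ((m9 s i).resolve_left c1).resolve_left c2
    obtain ⟨l, hl, a, b⟩ := exists_line hL (hx i)
    obtain ⟨j, hj, c⟩ := second_point hα hL hinj harc hl a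
    rcases c3 j hj with c4 | c4 | c4
    · have := line_eq hL hl hl1 (hx j) c b (k1' j c4).1 hx1
      exact absurd (three_not_collinear hinj harc hl1 (m5 s 0).symm a1 b1 (this ▸ a)) c1
    · have := line_eq hL hl hl2 (hx j) c b (k2' j c4).1 hx2
      exact absurd (three_not_collinear hinj harc hl2 (m5 s (k1 s)).symm a2 b2 (this ▸ a)) c2
    · exact ⟨l, hl, b, a, c4 ▸ c⟩
  choose x hx1 hx2 using hex
  have hpar : ∀ s i j, i ≠ j → ∀ l ∈ L, h i ∈ l → h j ∈ l → (x s ∈ l ↔ par s i = j) := by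
    intro s i j hij l hl hi hj
    obtain ⟨m, hm, a, b, c⟩ := hx2 s i
    constructor
    · intro hx
      have := line_eq hL hl hm (hx1 s i) hi hx b a
      rcases three_not_collinear hinj harc hl hij hi hj (this ▸ c) with d | d
      · exact absurd d (m5 s i)
      · exact d
    · intro e
      rw [e] at c
      rw [line_eq hL hl hm (hinj.ne hij) hi hj b c]; exact a
  have hxinj : Function.Injective x := by
    intro s t e
    apply m6
    intro i
    obtain ⟨m, hm, a, b, c⟩ := hx2 t i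
    exact (hpar s i _ (m5 t i).symm m hm b c).mp (e ▸ a)
  let f : Pt → α := Sum.elim h x
  have hf : Function.Injective f := hinj.sumElim hxinj fun i s => hx1 s i
  have hb : Function.Bijective f := (Fintype.bijective_iff_injective_and_card f).mpr
    ⟨hf, by simp [hα]⟩
  let e : Pt ≃ α := Equiv.ofBijective f hb
  have he : ∀ p, e p = f p := fun _ => rfl
  have himg : ∀ n, ((mline n).image e).card = 5 := fun n => by
    rw [card_image_of_injective _ e.injective, m1]
  have h1 : ∀ l ∈ L, ∃ n, l = (mline n).image e := by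
    intro l hl
    by_cases hH : ∃ i, h i ∈ l
    · obtain ⟨i, hi⟩ := hH
      obtain ⟨j, hj, hjl⟩ := second_point hα hL hinj harc hl hi
      obtain ⟨n, hn1, hn2⟩ := m3 i j hj.symm
      refine ⟨n, (eq_of_subset_of_card_le ?_ (by rw [himg, hL.1 l hl])).symm⟩
      intro y hy
      obtain ⟨p, hp, rfl⟩ := mem_image.mp hy
      rcases p with k | s
      · rcases hn1 k hp with rfl | rfl
        · exact hi
        · exact hjl
      · exact (hpar s i j hj.symm l hl hi hjl).mpr (hn2 s hp)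
    · push Not at hH
      have hpts : ∀ y ∈ l, ∃ s, x s = y := by
        intro y hy
        obtain ⟨p, rfl⟩ := hb.2 y
        rcases p with k | s
        · exact absurd hy (hH k)
        · exact ⟨s, rfl⟩
      have hdis : ∀ s t, s ≠ t → x s ∈ l → x t ∈ l → ∀ i, par s i ≠ par t i := by
        intro s t hst hs ht i e
        obtain ⟨m, hm, a, b, c⟩ := hx2 t i
        have := (hpar s i _ (m5 t i).symm m hm b c).mpr e
        exact hH i (line_eq hL hm hl (hxinj.ne hst) this a hs ht ▸ b)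
      obtain ⟨y, hy, y', hy', hyy⟩ := one_lt_card.mp (show 1 < l.card by rw [hL.1 l hl]; norm_num)
      obtain ⟨s, rfl⟩ := hpts y hy
      obtain ⟨t, rfl⟩ := hpts y' hy'
      have hst : s ≠ t := fun e => hyy (by rw [e])
      obtain ⟨n, hn1, hn2, hn3⟩ := m4 s t (hdis s t hst hy hy')
      refine ⟨n, eq_of_subset_of_card_le ?_ (by rw [himg, hL.1 l hl])⟩
      intro z hz
      obtain ⟨u, rfl⟩ := hpts z hz
      refine mem_image.mpr ⟨Sum.inr u, ?_, rfl⟩
      by_cases c1 : u = s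
      · rw [c1]; exact hn1
      by_cases c2 : u = t
      · rw [c2]; exact hn2
      refine (hn3 u (hdis u s c1 hz hy) (hdis u t c2 hz hy')).resolve_right fun c3 => ?_
      obtain ⟨w, hw, hw'⟩ := exists_mem_notMem_of_card_lt_card
        (s := ({x s, x t, x u} : Finset α)) (t := l)
        (lt_of_le_of_lt card_le_three (by rw [hL.1 l hl]; norm_num))
      obtain ⟨v, rfl⟩ := hpts w hw
      simp only [mem_insert, mem_singleton, not_or] at hw'
      exact c3 v (hdis v s (fun e => hw'.1 (by rw [e])) hw hy)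
        (hdis v t (fun e => hw'.2.1 (by rw [e])) hw hy')
        (hdis v u (fun e => hw'.2.2 (by rw [e])) hw hz)
  refine ⟨e, fun _ => rfl, fun l => ⟨h1 l, ?_⟩⟩
  rintro ⟨n, rfl⟩
  obtain ⟨p, hp, q, hq, hpq⟩ := one_lt_card.mp (show 1 < (mline n).card by rw [m1]; norm_num)
  obtain ⟨l, hl, a, b⟩ := exists_line hL (e.injective.ne hpq)
  obtain ⟨n', rfl⟩ := h1 l hl
  rw [e.injective.mem_finset_image] at a b
  rcases m2 n n' with rfl | c
  · exact hl
  · exact absurd (card_le_one.mp c p (mem_inter.mpr ⟨hp, a⟩) q (mem_inter.mpr ⟨hq, b⟩)) hpq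

theorem exists_hyperoval (hα : Fintype.card α = 21) (hL : IsSteinerSystem 2 5 L) :
    ∃ H : Finset α, H.card = 6 ∧ Arc L H := by
  obtain ⟨H, hH⟩ : (arcs L 6).Nonempty := by rw [← card_pos, card_arcs_six hα hL]; norm_num
  exact ⟨H, mem_arcs.mp hH⟩

theorem exists_enum {H : Finset α} (hH : H.card = 6) :
    ∃ h : Fin 6 ≃ H, ∀ σ : Equiv.Perm H, univ.image (fun i => (σ (h i) : α)) = H := by
  refine ⟨(H.equivFinOfCardEq hH).symm, fun σ => ?_⟩
  ext y
  simp only [mem_image, mem_univ, true_and]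
  constructor
  · rintro ⟨i, rfl⟩; exact Subtype.prop _
  · intro hy
    exact ⟨H.equivFinOfCardEq hH (σ.symm ⟨y, hy⟩), by simp⟩

/-- A collineation fixing a hyperoval pointwise is trivial. -/
theorem eq_of_fix (hα : Fintype.card α = 21) (hL : IsSteinerSystem 2 5 L) {h : Fin 6 → α}
    (hinj : Function.Injective h) (harc : Arc L (univ.image h)) (g : Equiv.Perm α)
    (hg : ∀ l ∈ L, l.image g ∈ L) (hfix : ∀ i, g (h i) = h i) : g = 1 := by
  ext p
  by_cases hp : ∃ i, h i = p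
  · obtain ⟨i, rfl⟩ := hp
    exact hfix i
  push Not at hp
  have key : ∀ i, ∃ l ∈ L, p ∈ l ∧ h i ∈ l ∧ g p ∈ l := by
    intro i
    obtain ⟨l, hl, a, b⟩ := exists_line hL (hp i)
    obtain ⟨j, hj, c⟩ := second_point hα hL hinj harc hl a
    refine ⟨l, hl, b, a, ?_⟩
    have := line_eq hL (hg l hl) hl (hinj.ne hj) (mem_image.mpr ⟨_, c, hfix j⟩)
      (mem_image.mpr ⟨_, a, hfix i⟩) c a
    rw [← this]
    exact mem_image_of_mem _ b
  by_contra hne
  obtain ⟨l0, hl0, a0, b0, c0⟩ := key 0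
  obtain ⟨l1, hl1, a1, b1, c1⟩ := key 1
  obtain ⟨l2, hl2, a2, b2, c2⟩ := key 2
  have e1 := line_eq hL hl1 hl0 hne c1 a1 c0 a0
  have e2 := line_eq hL hl2 hl0 hne c2 a2 c0 a0
  have := three_not_collinear hinj harc hl0 (show (0 : Fin 6) ≠ 1 by decide) b0 (e1 ▸ b1) (e2 ▸ b2)
  revert this; decide

theorem eqns_model : True := by
  have := @par.eq_def
  have := @par.eq_1
  have := @k1.eq_def
  have := @k1.eq_1
  have := @mline.eq_def
  have := @mline.eq_1
  trivial

end H96.Plane4
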